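import Mathlib
import Cfsg.Agent.H337.Bend.Iface
import Cfsg.Agent.H333.EvenSzC
import Cfsg.Agent.OddHalf.D4.EvenCyc
import Cfsg.Agent.H284.RankFix
import Cfsg.Agent.S0016
import Cfsg.Agent.SignalizersComponents.QsBasic
import Cfsg.Agent.OddOrderLocal.Rank

/-!
# S3145, piece QuatSz (helper333)

`K` standard in the simple group `G`, `K / Z(K)` a Suzuki group, `|Z(K)|` even, `m₂(C(K)) ≤ 1`: the Sylow 2-subgroups
of `C(K)` are cyclic.  (`z` the involution of `Z(K)`; Z*: `w = z^g ∈ C(z)`, `w ≠ z`; all involutions of `K / Z(K)` lift to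
involutions of `K`, so `w ∈ K` and `C(K) ≤ C(w) = N(K^g)`; a Sylow 2-subgroup of `C(K)` acts faithfully by inner
automorphisms on `K^g`, but the Suzuki groups do not contain quaternion groups.)
-/

set_option autoImplicit false
set_option linter.unusedSectionVars false

namespace Cfsg.Agent.H333.BQuatSz

open Cfsg Subgroup
open Cfsg.Agent.OddHalf.D4
open Cfsg.Agent.OddHalf.D4.EvenCyc (Ev)

/-- elements with the same square in a 2-subgroup of a Suzuki group commute -/
theorem comm_of_sq {J : Type*} [Group J] [Finite J] (h : Lie.IsoSuzuki J) {P : Subgroup J} (hP : IsPGroup 2 P)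
    {i j : J} (hi : i ∈ P) (hj : j ∈ P) (hij : i * i = j * j) : i * j = j * i := by
  have : Fact (Nat.Prime 2) := ⟨Nat.prime_two⟩
  obtain ⟨F, i1, i2, m, hm, hF, ⟨R⟩⟩ := ThreePrime.SzRel.exists_rel h
  obtain ⟨Sy, hSy⟩ := R.exists_sylow_eq hm hF
  obtain ⟨Q, hQ⟩ := hP.exists_le_sylow
  obtain ⟨g, hg⟩ := MulAction.exists_smul_eq J Q Sy
  have hT : ∀ y ∈ P, g * y * g⁻¹ ∈ R.T := by
    intro y hy
    rw [← hSy, ← hg, Sylow.coe_subgroup_smul]
    exact Subgroup.smul_mem_pointwise_smul y (MulAut.conj g) _ (hQ hy)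
  obtain ⟨a, b, hab⟩ := hT i hi
  obtain ⟨c, e, hce⟩ := hT j hj
  have h1 : R.u a b * R.u a b = R.u c e * R.u c e := by
    rw [← hab, ← hce]
    calc g * i * g⁻¹ * (g * i * g⁻¹) = g * (i * i) * g⁻¹ := by group
      _ = g * j * g⁻¹ * (g * j * g⁻¹) := by rw [hij]; group
  rw [R.u_mul_self, R.u_mul_self] at h1
  have h2 : a * R.θ a = c * R.θ c := (R.u_inj h1).2
  have h3 : a = c := by
    by_cases ha : a = 0
    · rw [ha, zero_mul] at h2
      rcases mul_eq_zero.1 h2.symm with h | h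
      · rw [ha, h]
      · rw [ha]
        exact (R.θ.injective (by rw [h, map_zero])).symm
    · have hc : c ≠ 0 := by
        rintro rfl
        rw [zero_mul] at h2
        rcases mul_eq_zero.1 h2 with h | h
        · exact ha h
        · exact ha (R.θ.injective (by rw [h, map_zero]))
      have h4 : R.θ (a / c) = (a / c)⁻¹ := by
        have hθc : R.θ c ≠ 0 := fun h => hc (R.θ.injective (by rw [h, map_zero]))
        rw [map_div₀]
        field_simp
        linear_combination h2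
      have h5 := R.sq (a / c)
      rw [h4, map_inv₀, h4, inv_inv] at h5
      have h6 : a / c ≠ 0 := div_ne_zero ha hc
      have h7 : a / c = 1 := by
        have h8 : (a / c) * (a / c) = (a / c) * 1 := by rw [← pow_two, ← h5, mul_one]
        exact mul_left_cancel₀ h6 h8
      exact (div_eq_one_iff_eq hc).1 h7
  have h8 : R.u a b * R.u c e = R.u c e * R.u a b := by
    rw [R.comm_iff, h3]
  rw [← hab, ← hce] at h8
  have h9 : g * (i * j) * g⁻¹ = g * (j * i) * g⁻¹ := by
    calc g * (i * j) * g⁻¹ = g * i * g⁻¹ * (g * j * g⁻¹) := by group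
      _ = g * (j * i) * g⁻¹ := by rw [h8]; group
  exact mul_left_cancel (mul_right_cancel h9)

/-- involutions of a Suzuki group are conjugate -/
theorem conj_inv {J : Type*} [Group J] [Finite J] (h : Lie.IsoSuzuki J) {a b : J} (ha : a * a = 1) (ha1 : a ≠ 1)
    (hb : b * b = 1) (hb1 : b ≠ 1) : ∃ g, g * a * g⁻¹ = b := by
  have : Fact (Nat.Prime 2) := ⟨Nat.prime_two⟩
  obtain ⟨F, i1, i2, m, hm, hF, ⟨R⟩⟩ := ThreePrime.SzRel.exists_rel h
  obtain ⟨Sy, hSy⟩ := R.exists_sylow_eq hm hF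
  have key : ∀ y : J, y * y = 1 → y ≠ 1 → ∃ g e, e ≠ 0 ∧ g * y * g⁻¹ = R.u 0 e := by
    intro y hy hy1
    have h2 : IsPGroup 2 (Subgroup.zpowers y) := by
      rw [IsPGroup.iff_card]
      exact ⟨1, by rw [Nat.card_zpowers, pow_one]; exact EvenCyc.order_of_mul_self hy hy1⟩
    obtain ⟨Q, hQ⟩ := h2.exists_le_sylow
    obtain ⟨g, hg⟩ := MulAction.exists_smul_eq J Q Sy
    have h3 : g * y * g⁻¹ ∈ R.T := by
      rw [← hSy, ← hg, Sylow.coe_subgroup_smul]
      exact Subgroup.smul_mem_pointwise_smul y (MulAut.conj g) _ (hQ (Subgroup.mem_zpowers y))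
    obtain ⟨c, e, hce⟩ := h3
    have h4 : R.u c e * R.u c e = 1 := by
      rw [← hce]
      calc g * y * g⁻¹ * (g * y * g⁻¹) = g * (y * y) * g⁻¹ := by group
        _ = 1 := by rw [hy]; group
    have hc := (R.u_sq_iff c e).mp h4
    subst hc
    refine ⟨g, e, ?_, hce⟩
    rintro rfl
    rw [R.u_zero] at hce
    apply hy1
    calc y = g⁻¹ * (g * y * g⁻¹) * g := by group
      _ = 1 := by rw [hce]; group
  obtain ⟨g, c, hc, hg⟩ := key a ha ha1
  obtain ⟨h, e, he, hh⟩ := key b hb hb1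
  obtain ⟨k, hk⟩ := R.theta_surj (e / c)
  have hk0 : k ≠ 0 := by
    rintro rfl
    rw [map_zero] at hk
    exact div_ne_zero he hc hk.symm
  have h1 := R.d_mul_u (Units.mk0 k hk0) 0 c
  rw [zero_mul, zero_mul, Units.val_mk0, hk, mul_div_cancel₀ _ hc] at h1
  refine ⟨h⁻¹ * R.d (Units.mk0 k hk0) * g, ?_⟩
  calc h⁻¹ * R.d (Units.mk0 k hk0) * g * a * (h⁻¹ * R.d (Units.mk0 k hk0) * g)⁻¹
      = h⁻¹ * (R.d (Units.mk0 k hk0) * (g * a * g⁻¹)) * (R.d (Units.mk0 k hk0))⁻¹ * h := by group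
    _ = h⁻¹ * (h * b * h⁻¹) * h := by rw [hg, h1, hh]; group
    _ = b := by group

/-- Lemma B: every element whose square is central is an involution (or 1) modulo the centre -/
theorem exists_lift {A : Type*} [Group A] [Finite A] (hp : commutator A = ⊤) (h : Lie.IsoSuzuki (A ⧸ center A))
    {t : A} (ht1 : t ≠ 1) (ht : t * t = 1) (htc : t ∈ center A)
    (hu : ∀ z ∈ center A, z * z = 1 → z = 1 ∨ z = t) {a : A} (ha : a * a ∈ center A) :
    ∃ c ∈ center A, (a * c) * (a * c) = 1 := by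
  by_cases hac : a ∈ center A
  · exact ⟨a⁻¹, inv_mem hac, by simp⟩
  obtain ⟨F, i1, i2, m, hm, hF, ⟨e⟩⟩ := id h
  -- the inner automorphism
  have hα : (MulAut.conj a : MulAut A) * MulAut.conj a = 1 := by
    ext x
    show a * (a * x * a⁻¹) * a⁻¹ = x
    have h1 := mem_center_iff.1 ha x
    calc a * (a * x * a⁻¹) * a⁻¹ = (a * a * x) * (a * a)⁻¹ := by group
      _ = x := by rw [← h1, mul_assoc, mul_inv_cancel, mul_one]
  have hα1 : (MulAut.conj a : MulAut A) ≠ 1 := by
    intro h1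
    apply hac
    rw [mem_center_iff]
    intro x
    have h2 : a * x * a⁻¹ = x := DFunLike.congr_fun h1 x
    calc x * a = (a * x * a⁻¹) * a := by rw [h2]
      _ = a * x := by group
  obtain ⟨x, hx, hxc⟩ := EvenSzC.p2 hp hm hF e ht1 ht htc hu hα hα1
  set y := ((MulAut.conj a : MulAut A) x)⁻¹ * x with hy
  obtain ⟨g0, hg0⟩ := conj_inv h (a := QuotientGroup.mk y) (b := QuotientGroup.mk a)
    (by rw [← QuotientGroup.mk_mul, hx]; rfl) (fun h1 => hxc ((QuotientGroup.eq_one_iff y).1 h1))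
    (by rw [← QuotientGroup.mk_mul]; exact (QuotientGroup.eq_one_iff _).2 ha)
    (fun h1 => hac ((QuotientGroup.eq_one_iff a).1 h1))
  obtain ⟨g, rfl⟩ := QuotientGroup.mk_surjective g0
  have h1 : (g * y * g⁻¹ : A)⁻¹ * a ∈ center A := by
    rw [← QuotientGroup.eq]
    exact hg0
  refine ⟨((g * y * g⁻¹ : A)⁻¹ * a)⁻¹, inv_mem h1, ?_⟩
  have h2 : a * ((g * y * g⁻¹ : A)⁻¹ * a)⁻¹ = g * y * g⁻¹ := by group
  rw [h2]
  calc g * y * g⁻¹ * (g * y * g⁻¹) = g * (y * y) * g⁻¹ := by group
    _ = 1 := by rw [hx]; group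

/-- a noncyclic Sylow 2-subgroup of a group of 2-rank 1 contains a quaternion group of order 8 -/
theorem exists_quat {C : Type*} [Group C] [Finite C] (hrk : PRankLE 2 1 C) (R : Sylow 2 C)
    (hR : ¬ IsCyclic ↥(R : Subgroup C)) :
    ∃ i j : ↥(R : Subgroup C), i * i = j * j ∧ i * j = (i * i) * (j * i) ∧ orderOf (i * i) = 2 := by
  have key : ∀ n : ℕ, ∃ i j : QuaternionGroup (2 ^ (n + 1)), i * i = j * j ∧ i * j = (i * i) * (j * i) ∧
      orderOf (i * i) = 2 := by
    intro n
    have hcast : ((2 ^ (n + 1) : ℕ) : ZMod (2 * 2 ^ (n + 1))) = (2 ^ n : ℕ) + (2 ^ n : ℕ) := by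
      rw [← Nat.cast_add]; congr 1; ring
    have h0 : ((2 ^ (n + 1) : ℕ) : ZMod (2 * 2 ^ (n + 1))) + (2 ^ (n + 1) : ℕ) = 0 := by
      rw [← Nat.cast_add]
      have : 2 ^ (n + 1) + 2 ^ (n + 1) = 2 * 2 ^ (n + 1) := by ring
      rw [this, ZMod.natCast_self]
    refine ⟨QuaternionGroup.a ((2 ^ n : ℕ) : ZMod (2 * 2 ^ (n + 1))), QuaternionGroup.xa 0, ?_, ?_, ?_⟩
    · rw [QuaternionGroup.a_mul_a, QuaternionGroup.xa_mul_xa, hcast]
      congr 1
      ring
    · rw [QuaternionGroup.a_mul_a, QuaternionGroup.a_mul_xa, QuaternionGroup.xa_mul_a, QuaternionGroup.a_mul_xa]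
      congr 1
      ring
    · rw [QuaternionGroup.a_mul_a, ← hcast]
      apply EvenCyc.order_of_mul_self
      · rw [QuaternionGroup.a_mul_a, h0]; rfl
      · intro h
        have h1 : ((2 ^ (n + 1) : ℕ) : ZMod (2 * 2 ^ (n + 1))) = 0 := QuaternionGroup.a.inj h
        rw [ZMod.natCast_eq_zero_iff] at h1
        have h2 := Nat.le_of_dvd (by positivity) h1
        have h3 : 0 < 2 ^ (n + 1) := by positivity
        omega
  have htr : ∀ n : ℕ, ∀ e : ↥(R : Subgroup C) ≃* QuaternionGroup (2 ^ (n + 1)),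
      ∃ i j : ↥(R : Subgroup C), i * i = j * j ∧ i * j = (i * i) * (j * i) ∧ orderOf (i * i) = 2 := by
    intro n e
    obtain ⟨i, j, h1, h2, h3⟩ := key n
    refine ⟨e.symm i, e.symm j, ?_, ?_, ?_⟩
    · rw [← map_mul, ← map_mul, h1]
    · rw [← map_mul, ← map_mul, ← map_mul, ← map_mul, h2]
    · rw [← map_mul]
      exact (orderOf_injective e.symm.toMonoidHom e.symm.injective (i * i)).trans h3
  rcases S0016.result (G := R) 2 R.isPGroup'
    (SignalizersComponents.QsBasic.unique_of_rank_one R.isPGroup' (OddOrderLocal.Rank.pRankLE_subgroup hrk)) with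
    hS | ⟨_, n, ⟨e⟩⟩
  · exact absurd hS hR
  · rcases n with _ | n
    · exfalso
      apply hR
      have h1 : IsCyclic (QuaternionGroup (2 ^ 0)) := by
        rw [pow_zero]; exact QuaternionGroup.quaternionGroup_one_isCyclic
      exact isCyclic_of_surjective e.symm e.symm.surjective
    · exact htr n e

/-- commuting involutions in a group of 2-rank 1 -/
theorem eq_of_comm {C : Type*} [Group C] [Finite C] (hrk : PRankLE 2 1 C) {a b : C} (ha : orderOf a = 2)
    (hb : orderOf b = 2) (hab : a * b = b * a) : a = b := by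
  by_contra hne
  have h1 := hrk (H284.RankFix.four a b (EvenCyc.mul_self_of_order ha) (EvenCyc.mul_self_of_order hb) hab)
    ⟨⟨fun x y => Subtype.ext (H284.RankFix.comm_four (x : C) x.2 (y : C) y.2)⟩⟩
    (fun x hx => by rw [pow_two]; exact H284.RankFix.sq_four x hx)
  have ha1 : a ≠ 1 := fun h => by rw [h, orderOf_one] at ha; omega
  have hb1 : b ≠ 1 := fun h => by rw [h, orderOf_one] at hb; omega
  rw [H284.RankFix.card_four (EvenCyc.mul_self_of_order ha) (EvenCyc.mul_self_of_order hb) hab ha1 hb1 hne] at h1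
  norm_num at h1

universe u

open Cfsg.Agent.H337.Bend in
/-- **the piece `QuatSz` of S3145** -/
theorem quatSz : QuatSz.{u} := by
  intro G _ _ _ K hK heven hSz hrk R
  have : Fact (Nat.Prime 2) := ⟨Nat.prime_two⟩
  by_contra hR
  have hp : commutator ↥K = ⊤ := hK.1.1.commutator_eq_top
  obtain ⟨F, i1, i2, m, hm, hF, ⟨e⟩⟩ := id hSz
  obtain ⟨z, hz⟩ := exists_prime_orderOf_dvd_card' (G := ↥(center ↥K)) 2 heven.two_dvd
  have hzz : ((z : ↥K) : G) * ((z : ↥K) : G) = 1 := by
    have h3 : z * z = 1 := EvenCyc.mul_self_of_order hz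
    have h4 : ((z * z : ↥(center ↥K)) : ↥K) = 1 := by rw [h3]; rfl
    exact congrArg Subtype.val h4
  have hz1 : ((z : ↥K) : G) ≠ 1 := by
    intro h
    have h4 : z = 1 := Subtype.ext (Subtype.ext h)
    rw [h4, orderOf_one] at hz
    omega
  have hzo : orderOf ((z : ↥K) : G) = 2 := EvenCyc.order_of_mul_self hzz hz1
  have hzC : ((z : ↥K) : G) ∈ centralizer (K : Set G) := by
    rw [mem_centralizer_iff]
    intro k hk
    exact congrArg Subtype.val (mem_center_iff.1 z.2 ⟨k, hk⟩)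
  have huniq : ∀ x ∈ centralizer (K : Set G), orderOf x = 2 → x = ((z : ↥K) : G) := by
    intro x hx hx2
    have h1 : (⟨x, hx⟩ : ↥(centralizer (K : Set G))) = ⟨_, hzC⟩ := by
      apply eq_of_comm hrk
      · rw [← Subgroup.orderOf_coe]; exact hx2
      · rw [← Subgroup.orderOf_coe]; exact hzo
      · apply Subtype.ext
        exact (mem_centralizer_iff.1 hx _ (z : ↥K).2).symm
    exact congrArg Subtype.val h1
  have E : Ev K ((z : ↥K) : G) := ⟨hK, (z : ↥K).2, hzC, hzo, fun x _ hx h2 => huniq x hx h2⟩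
  have hna : ∃ a b : G, a * b ≠ b * a := by
    by_contra hcon
    push Not at hcon
    have h1 : commutator ↥K = ⊥ := by
      rw [commutator_eq_bot_iff_center_eq_top, eq_top_iff]
      intro k _
      rw [mem_center_iff]
      intro l
      exact Subtype.ext (hcon _ _)
    have h2 : (z : ↥K) ∈ (⊥ : Subgroup ↥K) := by rw [← h1, hp]; exact mem_top _
    rw [mem_bot] at h2
    exact hz1 (congrArg Subtype.val h2)
  obtain ⟨g, hne, hcomm⟩ := EvenCyc.exists_conj_comm hna hzo
  set w := g * ((z : ↥K) : G) * g⁻¹ with hw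
  have hww : w * w = 1 := by
    rw [hw]
    calc g * ((z : ↥K) : G) * g⁻¹ * (g * ((z : ↥K) : G) * g⁻¹) = g * (((z : ↥K) : G) * ((z : ↥K) : G)) * g⁻¹ := by group
      _ = 1 := by rw [hzz]; group
  have hwN : w ∈ normalizer (K : Set G) := E.mem_iff.2 hcomm
  -- `w` acts as an inner automorphism
  obtain ⟨a, ha⟩ := GH.Cov.SzCover.exists_inner hp hm hF e (K.normalizerMonoidHom ⟨w, hwN⟩) (k := 1) (by
    rw [← map_pow]
    have h1 : (⟨w, hwN⟩ : ↥(normalizer (K : Set G))) ^ 2 ^ 1 = 1 := by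
      apply Subtype.ext
      show w ^ 2 ^ 1 = 1
      rw [pow_one, pow_two, hww]
    rw [h1, map_one])
  have ha' : ∀ x ∈ K, w * x * w⁻¹ = a * x * (a : G)⁻¹ := fun x hx => congrArg Subtype.val (ha ⟨x, hx⟩)
  have hy : (a : G)⁻¹ * w ∈ centralizer (K : Set G) := by
    rw [mem_centralizer_iff]
    intro x hx
    calc x * ((a : G)⁻¹ * w) = (a : G)⁻¹ * (a * x * (a : G)⁻¹) * w := by group
      _ = (a : G)⁻¹ * w * x := by rw [← ha' x hx]; group
  have haa : a * a ∈ center ↥K := by
    have h1 : (a : G) * ((a : G)⁻¹ * w) = ((a : G)⁻¹ * w) * a := mem_centralizer_iff.1 hy a a.2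
    have h2 : (a : G) * a = (((a : G)⁻¹ * w) * ((a : G)⁻¹ * w))⁻¹ := by
      rw [eq_inv_iff_mul_eq_one]
      have h3 : (a : G) * ((a : G)⁻¹ * w) = w := by group
      generalize hv : (a : G)⁻¹ * w = v at h1 h3 ⊢
      calc (a : G) * a * (v * v) = a * (a * v) * v := by group
        _ = a * (v * a) * v := by rw [h1]
        _ = (a * v) * (a * v) := by group
        _ = 1 := by rw [h3, hww]
    rw [mem_center_iff]
    intro x
    apply Subtype.ext
    have h3 : (a : G) * a ∈ centralizer (K : Set G) := by rw [h2]; exact inv_mem (mul_mem hy hy)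
    exact mem_centralizer_iff.1 h3 x x.2
  obtain ⟨c, hc, hac⟩ := exists_lift hp hSz (t := (z : ↥K)) (fun h => hz1 (congrArg Subtype.val h)) (Subtype.ext hzz) z.2
    (by
      intro y hy hyy
      by_cases h1 : y = 1
      · exact Or.inl h1
      · right
        apply Subtype.ext
        apply huniq
        · rw [mem_centralizer_iff]
          intro k hk
          exact congrArg Subtype.val (mem_center_iff.1 hy ⟨k, hk⟩)
        · rw [Subgroup.orderOf_coe]
          exact EvenCyc.order_of_mul_self hyy h1) haa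
  have hcC : (c : G) ∈ centralizer (K : Set G) := by
    rw [mem_centralizer_iff]
    intro k hk
    exact congrArg Subtype.val (mem_center_iff.1 hc ⟨k, hk⟩)
  -- `w ∈ K`
  have hwK : w ∈ K := by
    have h1 : ((a * c : ↥K) : G)⁻¹ * w ∈ centralizer (K : Set G) := by
      have h2 : ((a * c : ↥K) : G)⁻¹ * w = (c : G)⁻¹ * ((a : G)⁻¹ * w) := by
        show ((a : G) * c)⁻¹ * w = _
        group
      rw [h2]
      exact mul_mem (inv_mem hcC) hy
    have h3 : w = ((a * c : ↥K) : G) * (((a * c : ↥K) : G)⁻¹ * w) := by group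
    have hb : ((a * c : ↥K) : G) * ((a * c : ↥K) : G) = 1 := congrArg Subtype.val hac
    set b : G := ((a * c : ↥K) : G) with hbdef
    set v : G := b⁻¹ * w with hvdef
    have h4 : b * v = v * b := mem_centralizer_iff.1 h1 b (a * c).2
    have h5 : v * v = 1 := by
      have h6 : w * w = (b * b) * (v * v) := by
        rw [h3]
        calc b * v * (b * v) = b * (v * b) * v := by group
          _ = b * b * (v * v) := by rw [← h4]; group
      rw [hww, hb, one_mul] at h6
      exact h6.symm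
    rw [h3]
    refine mul_mem (a * c).2 ?_
    by_cases hv1 : v = 1
    · rw [hv1]; exact one_mem K
    · rw [huniq v h1 (EvenCyc.order_of_mul_self h5 hv1)]
      exact (z : ↥K).2
  -- the action of `R` on `K` through `g`
  have hRN : ∀ r : ↥(R : Subgroup ↥(centralizer (K : Set G))),
      g⁻¹ * ((r : ↥(centralizer (K : Set G))) : G) * g ∈ normalizer (K : Set G) := by
    intro r
    rw [E.mem_iff]
    have h1 : w * ((r : ↥(centralizer (K : Set G))) : G) = ((r : ↥(centralizer (K : Set G))) : G) * w :=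
      mem_centralizer_iff.1 (r : ↥(centralizer (K : Set G))).2 w hwK
    rw [hw] at h1
    calc g⁻¹ * ((r : ↥(centralizer (K : Set G))) : G) * g * ((z : ↥K) : G)
        = g⁻¹ * (((r : ↥(centralizer (K : Set G))) : G) * (g * ((z : ↥K) : G) * g⁻¹)) * g := by group
      _ = ((z : ↥K) : G) * (g⁻¹ * ((r : ↥(centralizer (K : Set G))) : G) * g) := by rw [← h1]; group
  let φ : ↥(R : Subgroup ↥(centralizer (K : Set G))) →* MulAut ↥K :=
    K.normalizerMonoidHom.comp
      { toFun := fun r => ⟨g⁻¹ * ((r : ↥(centralizer (K : Set G))) : G) * g, hRN r⟩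
        map_one' := by apply Subtype.ext; show g⁻¹ * 1 * g = 1; group
        map_mul' := by
          intro r s
          apply Subtype.ext
          show g⁻¹ * (((r : ↥(centralizer (K : Set G))) : G) * ((s : ↥(centralizer (K : Set G))) : G)) * g =
            (g⁻¹ * ((r : ↥(centralizer (K : Set G))) : G) * g) * (g⁻¹ * ((s : ↥(centralizer (K : Set G))) : G) * g)
          group }
  have hφ : ∀ r x, ((φ r x : ↥K) : G) =
      (g⁻¹ * ((r : ↥(centralizer (K : Set G))) : G) * g) * x * (g⁻¹ * ((r : ↥(centralizer (K : Set G))) : G) * g)⁻¹ :=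
    fun _ _ => rfl
  have hinner : ∀ r, ∃ b : ↥K, ∀ x, φ r x = b * x * b⁻¹ := by
    intro r
    obtain ⟨k, hk⟩ := (IsPGroup.iff_orderOf.1 R.isPGroup') r
    refine GH.Cov.SzCover.exists_inner hp hm hF e (φ r) (k := k) ?_
    rw [← map_pow, ← hk, pow_orderOf_eq_one, map_one]
  choose β hβ using hinner
  have hβu : ∀ r (b : ↥K), (∀ x, φ r x = b * x * b⁻¹) → (QuotientGroup.mk (β r) : ↥K ⧸ center ↥K) = QuotientGroup.mk b := by
    intro r b hb
    rw [QuotientGroup.eq, mem_center_iff]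
    intro x
    have h1 := (hβ r x).symm.trans (hb x)
    calc x * ((β r)⁻¹ * b) = (β r)⁻¹ * (β r * x * (β r)⁻¹) * b := by group
      _ = (β r)⁻¹ * b * x := by rw [h1]; group
  let f : ↥(R : Subgroup ↥(centralizer (K : Set G))) →* ↥K ⧸ center ↥K :=
    { toFun := fun r => QuotientGroup.mk (β r)
      map_one' := hβu 1 1 (fun x => by rw [map_one]; simp)
      map_mul' := by
        intro r s
        rw [← QuotientGroup.mk_mul]
        apply hβu
        intro x
        rw [map_mul, MulAut.mul_apply, hβ s, hβ r]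
        group }
  have hf : ∀ r, f r = QuotientGroup.mk (β r) := fun _ => rfl
  obtain ⟨i, j, hij, hcom, hord⟩ := exists_quat hrk R hR
  have hfr : IsPGroup 2 f.range := R.isPGroup'.of_surjective f.rangeRestrict f.rangeRestrict_surjective
  have h1 : f i * f j = f j * f i := by
    refine comm_of_sq hSz hfr ⟨i, rfl⟩ ⟨j, rfl⟩ ?_
    rw [← map_mul, ← map_mul, hij]
  have h2 : f (i * i) = 1 := by
    have h3 := congrArg f hcom
    rw [map_mul f (i * i), map_mul f j, map_mul f i j, h1] at h3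
    exact (mul_eq_right.1 h3.symm)
  have h3 : (((i * i : ↥(R : Subgroup ↥(centralizer (K : Set G)))) : ↥(centralizer (K : Set G))) : G) = ((z : ↥K) : G) := by
    apply huniq
    · exact ((i * i : ↥(R : Subgroup ↥(centralizer (K : Set G)))) : ↥(centralizer (K : Set G))).2
    · rw [Subgroup.orderOf_coe, Subgroup.orderOf_coe, hord]
  have h4 : g⁻¹ * ((z : ↥K) : G) * g ∈ centralizer (K : Set G) := by
    rw [mem_centralizer_iff]
    intro x hx
    have h5 : φ (i * i) ⟨x, hx⟩ = ⟨x, hx⟩ := by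
      rw [hβ]
      have h6 : β (i * i) ∈ center ↥K := (QuotientGroup.eq_one_iff _).1 h2
      rw [← mem_center_iff.1 h6, mul_inv_cancel_right]
    have h7 : (g⁻¹ * ((z : ↥K) : G) * g) * x * (g⁻¹ * ((z : ↥K) : G) * g)⁻¹ = x := by
      rw [← h3]
      exact congrArg Subtype.val h5
    calc x * (g⁻¹ * ((z : ↥K) : G) * g) = ((g⁻¹ * ((z : ↥K) : G) * g) * x * (g⁻¹ * ((z : ↥K) : G) * g)⁻¹) *
          (g⁻¹ * ((z : ↥K) : G) * g) := by rw [h7]
      _ = g⁻¹ * ((z : ↥K) : G) * g * x := by group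
  have h5 : g⁻¹ * ((z : ↥K) : G) * g⁻¹⁻¹ = ((z : ↥K) : G) := by
    apply E.conj_eq
    rw [inv_inv]
    exact h4
  apply hne
  rw [hw]
  rw [inv_inv] at h5
  calc g * ((z : ↥K) : G) * g⁻¹ = g * (g⁻¹ * ((z : ↥K) : G) * g) * g⁻¹ := by rw [h5]
    _ = ((z : ↥K) : G) := by group

end Cfsg.Agent.H333.BQuatSz
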